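import Cfsg.Agent.Suzuki.ReeActions

/-!
The small Ree groups are generated by two elements.
-/

set_option autoImplicit false

universe u

namespace Cfsg.Agent.Suzuki.Ree.TwoGen

open Cfsg.Lie Cfsg.Agent.Chev Cfsg.Agent.Suzuki.Ree
open scoped Matrix MatrixGroups

variable {K : Type u} [Field K] {m : ℕ} (h : Ctx K m)

local notation "G₁" => twistedG2 K (3 ^ m)
local notation "B₁" => chevG2.borelSubgroup K ⊓ twistedG2 K (3 ^ m)
local notation "H₁" => chevG2.diagonalSubgroup K ⊓ twistedG2 K (3 ^ m)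

include h in
theorem reeU_mul (t u v t' u' v' : K) :
    reeU m t u v * reeU m t' u' v' = reeU m (t + t') (u + u' - (t' ^ 3 ^ m) ^ 3 * t)
      (v + v' - t' * u - (t' ^ 3 ^ m) ^ 3 * t ^ 2 + t' * (t' ^ 3 ^ m) ^ 3 * t) := by
  have := h.char
  obtain ⟨T, a, b, e⟩ := (mem_unipotent_twisted h _).1 (mul_mem
    ((mem_unipotent_twisted h (reeU m t u v)).2 ⟨_, _, _, rfl⟩)
    ((mem_unipotent_twisted h (reeU m t' u' v')).2 ⟨_, _, _, rfl⟩))
  rw [e]
  rw [reeU_eq, reeU_eq, reeU_eq, Ug_mul] at e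
  obtain ⟨-, e1, -, -, e2, e3⟩ := Ug_inj e
  rw [← e1, ← e2, ← e3]

include h in
theorem reeU_cube (t u v : K) :
    reeU m t u v * reeU m t u v * reeU m t u v = reeU m 0 0 (-((t ^ 3 ^ m) ^ 3 * t ^ 2)) := by
  have := h.char
  have h3 : (3 : K) = 0 := by exact_mod_cast CharP.cast_eq_zero K 3
  rw [reeU_mul h, reeU_mul h]
  congr 1
  · linear_combination t * h3
  · linear_combination (u - (t ^ 3 ^ m) ^ 3 * t) * h3
  · linear_combination (v - t * u) * h3

/-- The coordinates occurring in a subgroup. -/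
def Coord (m : ℕ) (M : Subgroup (GL chevG2.Idx K)) (t u v : K) : Prop := reeU m t u v ∈ M

include h in
theorem layer_all {M : Subgroup (GL chevG2.Idx K)} (hm : 1 ≤ m) (hH : ∀ d ∈ H₁, d ∈ M)
    {t₀ u₀ v₀ : K} (ht₀ : t₀ ≠ 0) (h₀ : reeU m t₀ u₀ v₀ ∈ M) : ∀ t u v, reeU m t u v ∈ M := by
  classical
  have := h.char
  have := h.finite
  let := Fintype.ofFinite K
  have h3 : (3 : K) = 0 := by exact_mod_cast CharP.cast_eq_zero K 3
  obtain ⟨CM, hM⟩ : ∃ CM, CoxOK chevG2 CM := exists_cox (by simp)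
  have hconj : ∀ k : K, k ≠ 0 → ∀ t u v, reeU m t u v ∈ M →
      reeU m (k * t) ((k ^ 3 ^ m) ^ 3 * k * u) ((k ^ 3 ^ m) ^ 3 * k ^ 2 * v) ∈ M := by
    intro k hk t u v hmem
    obtain ⟨d, hd, hdt, hdk⟩ := exists_torus h hM hk
    have := mul_mem (mul_mem (hH d ⟨hd, hdt⟩) hmem) (inv_mem (hH d ⟨hd, hdt⟩))
    rwa [torus_conj h ⟨hd, hdt⟩, hdk] at this
  have htop : ∀ t, ∃ u v, reeU m t u v ∈ M := by
    intro t
    by_cases ht : t = 0
    · exact ⟨0, 0, by rw [ht, reeU_zero h]; exact one_mem _⟩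
    have := hconj (t / t₀) (div_ne_zero ht ht₀) _ _ _ h₀
    rw [div_mul_cancel₀ _ ht₀] at this
    exact ⟨_, _, this⟩
  -- the centre
  have hv : ∀ v, reeU m 0 0 v ∈ M := by
    set c := -((t₀ ^ 3 ^ m) ^ 3 * t₀ ^ 2) with hc
    have hcne : c ≠ 0 := neg_ne_zero.2 (mul_ne_zero (pow_ne_zero _ (pow_ne_zero _ ht₀)) (pow_ne_zero _ ht₀))
    have hcmem : reeU m 0 0 c ∈ M := by
      rw [hc, ← reeU_cube h t₀ u₀ v₀]
      exact mul_mem (mul_mem h₀ h₀) h₀
    intro v
    by_cases hv0 : v = 0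
    · rw [hv0, reeU_zero h]; exact one_mem _
    let f : Kˣ →* Kˣ :=
      { toFun := fun k => (k ^ 3 ^ m) ^ 3 * k ^ 2
        map_one' := by simp
        map_mul' := fun a b => by simp only [mul_pow]; ac_rfl }
    have hf : Function.Injective f := by
      rw [← MonoidHom.ker_eq_bot_iff, Subgroup.eq_bot_iff_forall]
      intro k hk
      exact Units.ext (mult_v h (by simpa [f] using congrArg Units.val (MonoidHom.mem_ker.1 hk)))
    obtain ⟨k, hk⟩ := Finite.injective_iff_surjective.1 hf (Units.mk0 (v / c) (div_ne_zero hv0 hcne))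
    have hk' : ((k : K) ^ 3 ^ m) ^ 3 * (k : K) ^ 2 = v / c := by
      simpa [f] using congrArg Units.val hk
    have := hconj k k.ne_zero 0 0 c hcmem
    rwa [mul_zero, mul_zero, hk', div_mul_cancel₀ _ hcne] at this
  -- the middle layer
  let L : AddSubgroup K :=
    { carrier := {u | reeU m 0 u 0 ∈ M}
      zero_mem' := by show reeU m 0 0 0 ∈ M; rw [reeU_zero h]; exact one_mem _
      add_mem' := fun {a b} ha hb => by
        have ha' : reeU m 0 a 0 ∈ M := ha
        have hb' : reeU m 0 b 0 ∈ M := hb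
        have := mul_mem ha' hb'
        rwa [reeU_layer_mul h, add_zero] at this
      neg_mem' := fun {a} ha => by
        have ha' : reeU m 0 a 0 ∈ M := ha
        have := mul_mem ha' ha'
        rw [reeU_layer_mul h, add_zero] at this
        show reeU m 0 (-a) 0 ∈ M
        rwa [show -a = a + a by linear_combination (-a) * h3] }
  obtain ⟨g, hg⟩ := IsCyclic.exists_generator (α := Kˣ)
  have hord : orderOf g = 3 ^ (2 * m + 1) - 1 := by
    rw [orderOf_eq_card_of_forall_mem_zpowers hg, Nat.card_units, h.card]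
  have hmne : ((g : K) ^ 3 ^ m) ^ 3 ≠ g := by
    intro e
    have h9 : 9 ≤ 3 ^ (m + 1) := by
      calc 9 = 3 ^ 2 := by norm_num
        _ ≤ _ := Nat.pow_le_pow_right (by norm_num) (by omega)
    have hlt : 3 ^ (m + 1) < 3 ^ (2 * m + 1) := Nat.pow_lt_pow_right (by norm_num) (by omega)
    have e' : (g : K) ^ (3 ^ (m + 1) - 1) = 1 := by
      refine mul_right_cancel₀ g.ne_zero ?_
      rw [← pow_succ, Nat.sub_add_cancel (by omega), pow_succ, pow_mul, e, one_mul]
    have := Nat.le_of_dvd (by omega) (orderOf_dvd_of_pow_eq_one (x := g) (n := 3 ^ (m + 1) - 1)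
      (Units.ext (by simpa using e')))
    omega
  obtain ⟨w, hw0, hw⟩ : ∃ w, w ≠ 0 ∧ w ∈ L := by
    obtain ⟨a₁, b₁, h1⟩ := htop 1
    obtain ⟨a₂, b₂, h2⟩ := htop (g : K)
    have hkey : ∀ (a b c a' b' : K), reeU m a b c * (reeU m a b' a')⁻¹ ∈ M →
        ∃ v, reeU m 0 (b - b') v ∈ M := by
      intro a b c a' b' hmem
      obtain ⟨T, x, y, e⟩ := (mem_unipotent_twisted h _).1 (mul_mem
        ((mem_unipotent_twisted h (reeU m a b c)).2 ⟨_, _, _, rfl⟩)
        (inv_mem ((mem_unipotent_twisted h (reeU m a b' a')).2 ⟨_, _, _, rfl⟩)))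
      rw [e] at hmem
      rw [mul_inv_eq_iff_eq_mul, reeU_mul h, reeU_eq, reeU_eq] at e
      obtain ⟨-, e1, -, -, e2, -⟩ := Ug_inj e
      have hT : T = 0 := by linear_combination -e1
      subst hT
      exact ⟨y, by rwa [show b - b' = x by linear_combination e2]⟩
    have e12 := mul_mem h1 h2
    rw [reeU_mul h] at e12
    have e21 := mul_mem h2 h1
    rw [reeU_mul h, add_comm (g : K) 1] at e21
    obtain ⟨v, hv'⟩ := hkey _ _ _ _ _ (mul_mem e12 (inv_mem e21))
    have hmem := mul_mem hv' (hv (-v))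
    rw [reeU_layer_mul h, add_zero, add_neg_cancel] at hmem
    refine ⟨_, ?_, hmem⟩
    simp only [one_pow, one_mul, mul_one]
    intro e
    apply hmne
    linear_combination -e
  have hsq : ∀ y : K, y ^ 2 * w ∈ L := by
    intro y
    by_cases hy : y = 0
    · simp [hy]
    let f : Kˣ →* Kˣ :=
      { toFun := fun k => (k ^ 3 ^ m) ^ 3 * k
        map_one' := by simp
        map_mul' := fun a b => by simp only [mul_pow]; ac_rfl }
    have hr : ∀ x ∈ (powMonoidHom 2 : Kˣ →* Kˣ).range, f x ∈ (powMonoidHom 2 : Kˣ →* Kˣ).range := by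
      rintro _ ⟨a, rfl⟩
      exact ⟨f a, by rw [powMonoidHom_apply, powMonoidHom_apply, map_pow]⟩
    let f' : (powMonoidHom 2 : Kˣ →* Kˣ).range → (powMonoidHom 2 : Kˣ →* Kˣ).range :=
      fun x => ⟨f x, hr x x.2⟩
    have hinj : Function.Injective f' := by
      intro x y e
      have e' : f ((x : Kˣ) * (y : Kˣ)⁻¹) = 1 := by
        rw [map_mul, map_inv, show f x = f y from congrArg Subtype.val e, mul_inv_cancel]
      obtain ⟨a, ha⟩ := mul_mem x.2 (inv_mem y.2)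
      have h2 : ((x : Kˣ) * (y : Kˣ)⁻¹) ^ 2 = 1 :=
        Units.ext (by simpa using mult_u h (by simpa [f] using congrArg Units.val e'))
      have h4 : a ^ 4 = 1 := by
        rw [show (4 : ℕ) = 2 * 2 by norm_num, pow_mul, show a ^ 2 = _ from ha]
        exact h2
      have hdiv : orderOf a ∣ Nat.gcd 4 (3 ^ (2 * m + 1) - 1) := by
        refine Nat.dvd_gcd (orderOf_dvd_of_pow_eq_one h4) ?_
        rw [← h.card, ← Nat.card_units]
        exact orderOf_dvd_natCard a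
      have hg4 : Nat.gcd 4 (3 ^ (2 * m + 1) - 1) ∣ 2 := by
        have h8 : 3 ^ (2 * m + 1) % 4 = 3 := by
          rw [pow_succ, pow_mul, Nat.mul_mod, Nat.pow_mod]; norm_num
        have hmod : (3 ^ (2 * m + 1) - 1) % 4 = 2 := by
          have hp1 : 1 ≤ 3 ^ (2 * m + 1) := Nat.one_le_pow _ _ (by norm_num)
          omega
        rw [Nat.gcd_rec, hmod]
        norm_num
      have := orderOf_dvd_iff_pow_eq_one.1 (hdiv.trans hg4)
      rw [show a ^ 2 = _ from ha] at this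
      exact Subtype.ext (mul_inv_eq_one.1 this)
    obtain ⟨⟨k, hk1⟩, hk⟩ := Finite.injective_iff_surjective.1 hinj
      ⟨Units.mk0 y hy ^ 2, ⟨Units.mk0 y hy, rfl⟩⟩
    have hk' : ((k : K) ^ 3 ^ m) ^ 3 * (k : K) = y ^ 2 := by
      simpa [f', f] using congrArg (fun z : (powMonoidHom 2 : Kˣ →* Kˣ).range => ((z : Kˣ) : K)) hk
    have := hconj k k.ne_zero 0 w 0 (hw : reeU m 0 w 0 ∈ M)
    rw [mul_zero, mul_zero, hk'] at this
    exact this
  have hu : ∀ u, reeU m 0 u 0 ∈ M := by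
    intro u
    have := L.sub_mem (hsq (u / w + 1)) (hsq (u / w - 1))
    show u ∈ L
    rwa [show (u / w + 1) ^ 2 * w - (u / w - 1) ^ 2 * w = u by
      field_simp
      linear_combination u * w * h3] at this
  intro t u v
  obtain ⟨a, b, hab⟩ := htop t
  have hl : ∀ x y, reeU m 0 x y ∈ M := fun x y => by
    have := mul_mem (hu x) (hv y)
    rwa [reeU_layer_mul h, add_zero, zero_add] at this
  have e := mul_mem (hl (u - a) (v - b + t * (u - a))) hab
  rwa [reeU_mul h, zero_add, mul_zero, show (0 : K) ^ 2 = 0 by simp, mul_zero, mul_zero,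
    show u - a + a - 0 = u by ring,
    show v - b + t * (u - a) + b - t * (u - a) - 0 + 0 = v by ring] at e

include h in
theorem two_generated (hm : 1 ≤ m) :
    ∃ a b : ↥G₁, Subgroup.closure ({a, b} : Set ↥G₁) = ⊤ := by
  have := h.char
  have := h.finite
  let := Fintype.ofFinite K
  obtain ⟨CM, hM⟩ : ∃ CM, CoxOK chevG2 CM := exists_cox (by simp)
  haveI := torus_cyclic h
  obtain ⟨d₀, hd₀⟩ := IsCyclic.exists_generator (α := ↥H₁)
  let y : ↥G₁ := ⟨wElt * reeU m 1 0 0, mul_mem (wElt_mem h) (reeU_mem _ _ _)⟩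
  refine ⟨⟨d₀, d₀.2.2⟩, y, ?_⟩
  set S : Set ↥G₁ := {⟨d₀, d₀.2.2⟩, y} with hS
  set M := (Subgroup.closure S).map (G₁).subtype with hMdef
  have hMG : M ≤ G₁ := Subgroup.map_subtype_le _
  suffices hall : G₁ ≤ M by
    refine eq_top_iff.2 fun x _ => ?_
    obtain ⟨z, hz, e⟩ := hall x.2
    rwa [← Subtype.ext e]
  have hd : (d₀ : GL chevG2.Idx K) ∈ M := ⟨_, Subgroup.subset_closure (Set.mem_insert _ _), rfl⟩
  have hy : wElt * reeU m 1 0 0 ∈ M := ⟨y, Subgroup.subset_closure (by simp [hS]), rfl⟩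
  have hH : ∀ d ∈ H₁, d ∈ M := by
    intro d hd'
    have : d₀ ∈ M.comap (H₁).subtype := hd
    exact (Subgroup.zpowers_le.2 this) (hd₀ ⟨d, hd'⟩)
  haveI : Nontrivial Kˣ := by
    rw [← Finite.one_lt_card_iff_nontrivial, Nat.card_units, h.card]
    have : 3 ^ 3 ≤ 3 ^ (2 * m + 1) := Nat.pow_le_pow_right (by norm_num) (by omega)
    omega
  obtain ⟨g, hg⟩ := exists_ne (1 : Kˣ)
  obtain ⟨d, hdd, hdt, hdk⟩ := exists_torus h hM g.ne_zero
  have hk : wElt * d * (wElt : GL chevG2.Idx K)⁻¹ ∈ H₁ :=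
    Subgroup.mem_inf.2 ⟨cG.monomial_conj_diagonal wElt_monomial hdd,
      Subgroup.mul_mem _ (Subgroup.mul_mem _ (wElt_mem h) hdt) (Subgroup.inv_mem _ (wElt_mem h))⟩
  have hz : (reeU m (1 : K) 0 0)⁻¹ * (d * reeU m 1 0 0 * d⁻¹) ∈ M := by
    have := mul_mem (mul_mem (mul_mem (inv_mem hy) (hH _ hk)) hy) (inv_mem (hH d ⟨hdd, hdt⟩))
    rwa [show (wElt * reeU m (1 : K) 0 0)⁻¹ * (wElt * d * wElt⁻¹) * (wElt * reeU m 1 0 0) * d⁻¹ =
      (reeU m (1 : K) 0 0)⁻¹ * (d * reeU m 1 0 0 * d⁻¹) by group] at this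
  rw [torus_conj h ⟨hdd, hdt⟩, hdk] at hz
  simp only [mul_one, mul_zero] at hz
  obtain ⟨T, a, b, e⟩ := (mem_unipotent_twisted h _).1 (mul_mem
    (inv_mem ((mem_unipotent_twisted h (reeU m (1 : K) 0 0)).2 ⟨_, _, _, rfl⟩))
    ((mem_unipotent_twisted h (reeU m (g : K) 0 0)).2 ⟨_, _, _, rfl⟩))
  rw [e] at hz
  have hT : T ≠ 0 := by
    intro hT
    rw [inv_mul_eq_iff_eq_mul, reeU_mul h, hT] at e
    have := (reeU_inj h e).1
    exact hg (Units.ext (by simpa using this))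
  have hU := layer_all h hm hH hT hz
  have hw : (wElt : GL chevG2.Idx K) ∈ M := by
    simpa using mul_mem hy (inv_mem (hU 1 0 0))
  have hB : ∀ b ∈ B₁, b ∈ M := by
    intro b hb
    obtain ⟨t, u, v, d, hd', rfl⟩ := mem_borel_twisted h hb
    exact mul_mem (hU t u v) (hH d hd')
  intro x hx
  rcases twisted_bruhat h hx with hb | ⟨b, hb, t, u, v, rfl⟩
  · exact hB x hb
  · exact mul_mem (mul_mem (hB b hb) hw) (hU t u v)

end Cfsg.Agent.Suzuki.Ree.TwoGen
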